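import Cfsg.Agent.H475.KGL.Rows
import Cfsg.Agent.UGT.A7.Five
import Cfsg.Agent.H525.AltK
import Cfsg.Agent.H540.SmallSym

/-!
# Project KGL: the bounds for `A₅` (helper393)

* `ubk_a5` : groups between `A₅` and `Aut A₅` have at most `7` classes;
* `lbp_two` : a nontrivial representation of a perfect group has degree at least `2`.
-/

set_option autoImplicit false

namespace Cfsg.Agent.H393.KGL

open Subgroup Equiv Cfsg.Agent.H475.KGL

theorem kc_congr {X Y : Type*} [Group X] [Group Y] (e : X ≃* Y) : kc X = kc Y :=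
  Nat.card_congr ⟨ConjClasses.map e.toMonoidHom, ConjClasses.map e.symm.toMonoidHom, by
    intro c
    obtain ⟨a, rfl⟩ := ConjClasses.exists_rep c
    change ConjClasses.mk (e.symm (e a)) = ConjClasses.mk a
    rw [e.symm_apply_apply], by
    intro c
    obtain ⟨a, rfl⟩ := ConjClasses.exists_rep c
    change ConjClasses.mk (e (e.symm a)) = ConjClasses.mk a
    rw [e.apply_symm_apply]⟩

/-- groups between `A₅` and `S₅` -/
theorem kc_perm5 (Y : Subgroup (Perm (Fin 5))) (h : alternatingGroup (Fin 5) ≤ Y) : kc Y ≤ 7 := by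
  have hidx : (alternatingGroup (Fin 5)).index = 2 := alternatingGroup.index_eq_two
  have h1 : Y.index ∣ 2 := by
    rw [← hidx]
    exact index_dvd_of_le h
  rcases (Nat.dvd_prime Nat.prime_two).1 h1 with h2 | h2
  · rw [index_eq_one] at h2
    subst h2
    rw [kc_congr topEquiv]
    exact Cfsg.Agent.H540.SmallSym.card_conjClasses_five
  · have h3 : alternatingGroup (Fin 5) = Y := by
      apply eq_of_le_of_card_ge h
      have e1 := card_mul_index (alternatingGroup (Fin 5))
      have e2 := card_mul_index Y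
      rw [hidx] at e1
      rw [h2] at e2
      omega
    subst h3
    exact Cfsg.Agent.H525.AltK.alt_five.trans (by norm_num)

theorem ubk_alt5 : UBk (alternatingGroup (Fin 5)) 7 := by
  intro Y hY
  obtain ⟨ψ, hψ⟩ := Cfsg.Agent.UGT.A7.Dg.exists_autHom5
  have hinj : Function.Injective ψ := by
    rw [injective_iff_map_eq_one]
    intro e he
    ext x : 1
    apply Subtype.ext
    rw [hψ, he, one_mul, inv_one, mul_one]
    rfl
  have h1 : alternatingGroup (Fin 5) ≤ Y.map ψ := by
    intro g hg
    refine ⟨MulAut.conj ⟨g, hg⟩, hY ⟨_, rfl⟩, ?_⟩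
    apply Cfsg.Agent.StandardComponent.AltAut.conj_unique (m := 3) (by omega)
    intro x
    rw [← hψ, MulAut.conj_apply]
    rfl
  rw [kc_congr (Y.equivMapOfInjective ψ hinj)]
  exact kc_perm5 _ h1

theorem ubk_congr {T T' : Type} [Group T] [Group T'] (e : T ≃* T') {κ : ℕ} (h : UBk T' κ) : UBk T κ := by
  intro Y hY
  have h1 := h (Y.map (MulAut.congr e).toMonoidHom) (by
    rintro _ ⟨g, rfl⟩
    refine ⟨MulAut.conj (e.symm g), hY ⟨_, rfl⟩, ?_⟩
    ext x : 1
    show e ((MulAut.conj (e.symm g)) (e.symm x)) = MulAut.conj g x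
    rw [MulAut.conj_apply, MulAut.conj_apply, map_mul, map_mul, map_inv, e.apply_symm_apply, e.apply_symm_apply])
  rwa [← kc_congr (Y.equivMapOfInjective (MulAut.congr e).toMonoidHom (MulAut.congr e).injective)] at h1

theorem ubk_a5 {T : Type} [Group T] (e : T ≃* alternatingGroup (Fin 5)) : UBk T 7 := ubk_congr e ubk_alt5

/-- a nontrivial representation of a perfect group has degree at least `2` -/
theorem lbp_two (T : Type) [Group T] (p : ℕ) : LBp T p 2 := by
  intro L _ _ _ hL π _ _ F _ _ _ n ρ hρ
  by_contra hn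
  apply hρ
  have hcomm : ∀ a b : GL (Fin n) F, a * b = b * a := by
    intro a b
    have : Subsingleton (Fin n) := by
      apply Fin.subsingleton_iff_le_one.2
      omega
    apply Units.ext
    ext i j
    rw [Units.val_mul, Units.val_mul, Matrix.mul_apply, Matrix.mul_apply]
    refine Finset.sum_congr rfl fun k _ => ?_
    rw [Subsingleton.elim k i, Subsingleton.elim j i, mul_comm]
  have h1 : commutator L ≤ ρ.ker := by
    rw [commutator_eq_closure, closure_le]
    rintro _ ⟨a, b, rfl⟩
    rw [SetLike.mem_coe, MonoidHom.mem_ker, map_commutatorElement, commutatorElement_def, hcomm (ρ a) (ρ b)]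
    group
  rw [hL] at h1
  ext x : 1
  exact MonoidHom.mem_ker.1 (h1 (mem_top x))

end Cfsg.Agent.H393.KGL
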