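import Cfsg.Agent.H393.KGL.AFive

/-!
# Project KGL: numeric assembly of the components case (helper393)
-/

set_option autoImplicit false

namespace Cfsg.Agent.H393.KGL

open Subgroup Cfsg.Agent.H475.KGL

universe u v w

/-- the statement of task S1a -/
def SStmt (p e : ℕ) {H : Type u} [Group H] (A M C : Subgroup H) {W : Type v}
    [AddCommGroup W] [Module (ZMod p) W] (ρ : C →* (W ≃ₗ[ZMod p] W)) : Prop :=
    ∃ (T : Type) (_ : Group T) (_ : Finite T) (t : ℕ) (L : Fin t → Subgroup H),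
      IsSimpleGroup T ∧ (∃ x y : T, x * y ≠ y * x) ∧ ¬ p ∣ Nat.card T ∧ 1 ≤ t ∧
      (∀ i, L i ≤ M) ∧ (∀ i j, i ≠ j → ∀ x ∈ L i, ∀ y ∈ L j, x * y = y * x) ∧
      (∀ i, commutator (L i) = ⊤) ∧
      (∀ i, ∃ π : L i →* T, Function.Surjective π ∧ π.ker ≤ center (L i)) ∧
      (∀ i, ∀ w : W, (∀ x : C, (x : H) ∈ L i → ρ x w = w) → w = 0) ∧
      (t = 1 → ∃ φ : M →* T, Function.Surjective φ ∧ ∀ x : M, φ x = 1 ↔ (x : H) ∈ A) ∧
      (Perm2 → ∀ κ, UBk T κ → ∀ N : Subgroup H, N.IsSubnormal → N ≤ C →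
        kc N ≤ (p ^ e - 1) * κ ^ t * 2 ^ (t - 1))

/-- the statement of task S1b -/
def DimGe : Prop := ∀ {K : Type u} [Field K] [Finite K] {p : ℕ} [CharP K p] {T : Type} [Group T] [Finite T]
    {δ : ℕ} (_ : LBp T p δ) (_ : 2 ≤ δ) {t : ℕ} (_ : 1 ≤ t) {G : Type v} [Group G] [Finite G]
    (_ : ¬ p ∣ Nat.card G) (L : Fin t → Subgroup G)
    (_ : ∀ i j, i ≠ j → ∀ x ∈ L i, ∀ y ∈ L j, x * y = y * x)
    (_ : ∀ i, commutator (L i) = ⊤)
    (_ : ∀ i, ∃ π : L i →* T, Function.Surjective π ∧ π.ker ≤ center (L i))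
    {W : Type w} [AddCommGroup W] [Module K W] [Finite W] [Nontrivial W] (ρ : G →* (W ≃ₗ[K] W))
    (_ : ∀ i, ∀ w : W, (∀ x ∈ L i, ρ x w = w) → w = 0),
    t * δ ≤ Module.finrank K W

/-- the statement of task S3 -/
def A5Stmt (p e : ℕ) {H : Type u} [Group H] (A M C : Subgroup H) (W : Type v) : Prop :=
  ∀ φ : M →* alternatingGroup (Fin 5), Function.Surjective φ → (∀ x : M, φ x = 1 ↔ (x : H) ∈ A) →
    Nat.card W = (p ^ e) ^ 2 → BGood e C W

/-! ### arithmetic -/

theorem e_le {p e : ℕ} (hp : 2 ≤ p) : e ≤ p ^ (e - 1) := by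
  rcases Nat.eq_zero_or_pos e with rfl | he
  · simp
  · have h1 : e - 1 < 2 ^ (e - 1) := Nat.lt_two_pow_self
    have h2 : 2 ^ (e - 1) ≤ p ^ (e - 1) := Nat.pow_le_pow_left hp _
    omega

theorem arith1 {p e t δ d κ k : ℕ} (hp : 2 ≤ p) (he : 1 ≤ e) (ht : 1 ≤ t) (hδ : 2 ≤ δ) (hd : t * δ ≤ d)
    (hκ : 2 * κ ≤ p ^ (δ - 1)) (hk : k ≤ (p ^ e - 1) * κ ^ t * 2 ^ (t - 1)) : 2 * e * k ≤ (p ^ e) ^ d := by
  have h1 : 2 * e * k ≤ e * (p ^ e - 1) * (2 * κ) ^ t := by
    calc 2 * e * k ≤ 2 * e * ((p ^ e - 1) * κ ^ t * 2 ^ (t - 1)) := Nat.mul_le_mul_left _ hk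
      _ = e * (p ^ e - 1) * (κ ^ t * (2 * 2 ^ (t - 1))) := by ring
      _ = e * (p ^ e - 1) * (2 * κ) ^ t := by
        rw [← pow_succ', Nat.sub_add_cancel ht, mul_pow, mul_comm (κ ^ t)]
  have h2 : (2 * κ) ^ t ≤ p ^ ((δ - 1) * t) := by
    rw [pow_mul]
    exact Nat.pow_le_pow_left hκ t
  have h3 : e * (p ^ e - 1) ≤ p ^ (e - 1) * p ^ e := Nat.mul_le_mul (e_le hp) (Nat.sub_le _ _)
  refine h1.trans ((Nat.mul_le_mul h3 h2).trans ?_)
  rw [← pow_add, ← pow_add, ← pow_mul]
  apply Nat.pow_le_pow_right (by omega)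
  have h4 : e * (t * δ) ≤ e * d := Nat.mul_le_mul_left _ hd
  refine le_trans ?_ h4
  obtain ⟨a, rfl⟩ := Nat.exists_eq_add_of_le' he
  obtain ⟨b, rfl⟩ := Nat.exists_eq_add_of_le' ht
  obtain ⟨c, rfl⟩ := Nat.exists_eq_add_of_le' hδ
  simp only [Nat.add_sub_cancel]
  have : c + 2 - 1 = c + 1 := rfl
  rw [this]
  nlinarith [Nat.zero_le (a * b), Nat.zero_le (a * c), Nat.zero_le (b * c), Nat.zero_le (a * b * c)]

theorem seven_le {p e : ℕ} (hp : 7 ≤ p) (he : 1 ≤ e) : 7 * e ≤ p ^ e := by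
  obtain ⟨a, rfl⟩ := Nat.exists_eq_add_of_le' he
  have h1 := e_le (e := a + 1) (by omega : 2 ≤ p)
  rw [Nat.add_sub_cancel] at h1
  rw [pow_succ, mul_comm]
  exact Nat.mul_le_mul h1 hp

theorem arith2 {p e t d k : ℕ} (hp : 7 ≤ p) (he : 1 ≤ e) (hd : 2 * t ≤ d)
    (h : 2 ≤ t ∨ (t = 1 ∧ 3 ≤ d)) (hk : k ≤ (p ^ e - 1) * 7 ^ t * 2 ^ (t - 1)) : 2 * e * k ≤ (p ^ e) ^ d := by
  have hq := seven_le hp he
  obtain ⟨q, hqq⟩ : ∃ q, q = p ^ e := ⟨_, rfl⟩
  rw [← hqq] at hq hk ⊢
  have ht : 1 ≤ t := by omega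
  have h7 : 7 ≤ q := by omega
  have h1 : 2 * e * k ≤ (e * q) * 14 ^ t := by
    calc 2 * e * k ≤ 2 * e * ((q - 1) * 7 ^ t * 2 ^ (t - 1)) := Nat.mul_le_mul_left _ hk
      _ = e * (q - 1) * (7 ^ t * (2 * 2 ^ (t - 1))) := by ring
      _ = e * (q - 1) * 14 ^ t := by
        rw [← pow_succ', Nat.sub_add_cancel ht, ← mul_pow]
        norm_num
      _ ≤ (e * q) * 14 ^ t := Nat.mul_le_mul_right _ (Nat.mul_le_mul_left _ (Nat.sub_le _ _))
  rcases h with h | ⟨rfl, h⟩
  · obtain ⟨s, rfl⟩ := Nat.exists_eq_add_of_le' h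
    have h2 : 14 ^ s ≤ (q ^ 2) ^ s := Nat.pow_le_pow_left (by nlinarith) s
    have h3 : e * q * 14 ^ 2 ≤ q ^ 4 := by
      have : e * q * 14 ^ 2 = (7 * e) * (q * 28) := by ring
      rw [this]
      calc 7 * e * (q * 28) ≤ q * (q * (q ^ 2)) := Nat.mul_le_mul hq (Nat.mul_le_mul_left _ (by nlinarith))
        _ = q ^ 4 := by ring
    calc 2 * e * k ≤ (e * q) * 14 ^ (s + 2) := h1
      _ = (e * q * 14 ^ 2) * 14 ^ s := by ring
      _ ≤ q ^ 4 * (q ^ 2) ^ s := Nat.mul_le_mul h3 h2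
      _ = q ^ (2 * (s + 2)) := by ring
      _ ≤ q ^ d := Nat.pow_le_pow_right (by omega) hd
  · calc 2 * e * k ≤ (e * q) * 14 ^ 1 := h1
      _ = (7 * e) * (q * 2) := by ring
      _ ≤ q * (q * q) := Nat.mul_le_mul hq (Nat.mul_le_mul_left _ (by omega))
      _ = q ^ 3 := by ring
      _ ≤ q ^ d := Nat.pow_le_pow_right (by omega) h

/-! ### the field -/

section

variable {p e : ℕ} [Fact p.Prime] {H : Type u} [Group H] {A M C : Subgroup H} {W : Type v}
  [AddCommGroup W] [Module (ZMod p) W] {ρ : C →* (W ≃ₗ[ZMod p] W)}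

/-- the endomorphisms commuting with `M` -/
def EndM (M : Subgroup H) (ρ : C →* (W ≃ₗ[ZMod p] W)) : Subring (Module.End (ZMod p) W) :=
  Subring.centralizer {x | ∃ m : C, (m : H) ∈ M ∧ x = (ρ m : W →ₗ[ZMod p] W)}

theorem mem_EndM {f : Module.End (ZMod p) W} :
    f ∈ EndM M ρ ↔ ∀ m : C, (m : H) ∈ M → ∀ w, f (ρ m w) = ρ m (f w) := by
  unfold EndM
  rw [Subring.mem_centralizer_iff]
  constructor
  · intro h m hm w
    exact (LinearMap.congr_fun (h _ ⟨m, hm, rfl⟩) w).symm
  · rintro h _ ⟨m, hm, rfl⟩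
    ext w
    exact (h m hm w).symm

theorem exists_field [Finite W] (h : BSit p e A M C ρ) :
    ∃ (K : Type v) (_ : Field K) (_ : Finite K) (_ : CharP K p) (_ : Module K W) (ρ' : C →* (W ≃ₗ[K] W)),
      Nat.card K = p ^ e ∧ ∀ c w, ρ' c w = ρ c w := by
  have hnt := h.nt
  have hfin : Finite (Module.End (ZMod p) W) :=
    Finite.of_injective (fun f : Module.End (ZMod p) W => (f : W → W)) DFunLike.coe_injective
  have hfinK : Finite (EndM M ρ) := inferInstance
  have hcard : Nat.card (EndM M ρ) = p ^ e := by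
    rw [← h.endq]
    exact Nat.card_congr (Equiv.subtypeEquivRight fun f => mem_EndM)
  have hdom : IsDomain (EndM M ρ) := by
    have : NoZeroDivisors (EndM M ρ) := by
      constructor
      intro f g hfg
      by_contra hc
      push Not at hc
      obtain ⟨hf, hg⟩ := hc
      have h0 : ∀ m : C, (m : H) ∈ M → ∀ u ∈ LinearMap.ker (f : Module.End (ZMod p) W),
          ρ m u ∈ LinearMap.ker (f : Module.End (ZMod p) W) := by
        intro m hm u hu
        rw [LinearMap.mem_ker] at hu ⊢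
        rw [mem_EndM.1 f.2 m hm, hu, map_zero]
      have h1 : LinearMap.ker (f : Module.End (ZMod p) W) = ⊥ := by
        rcases h.irr (LinearMap.ker (f : Module.End (ZMod p) W)) h0 with h1 | h1
        · exact h1
        · exfalso
          apply hf
          rw [LinearMap.ker_eq_top] at h1
          exact Subtype.ext h1
      apply hg
      apply Subtype.ext
      ext w
      have h2 : (f : Module.End (ZMod p) W) ((g : Module.End (ZMod p) W) w) = 0 := by
        have := congrArg (fun x : EndM M ρ => (x : Module.End (ZMod p) W) w) hfg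
        exact this
      exact LinearMap.ker_eq_bot'.1 h1 _ h2
    have : Nontrivial (EndM M ρ) := inferInstance
    exact NoZeroDivisors.to_isDomain _
  let F : Field (EndM M ρ) := (Finite.isDomain_to_isField (EndM M ρ)).toField
  let Md : Module (EndM M ρ) W := Module.compHom W (EndM M ρ).subtype
  have hsm : ∀ (f : EndM M ρ) (w : W), f • w = (f : Module.End (ZMod p) W) w := fun _ _ => rfl
  have hch : CharP (EndM M ρ) p := by
    rw [CharP.charP_iff_prime_eq_zero (Fact.out : p.Prime)]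
    apply Subtype.ext
    ext w
    have h1 : ((p : ℕ) : Module.End (ZMod p) W) w = (p : ℕ) • w := Module.End.natCast_apply p w
    have h2 : (p : ℕ) • w = ((p : ℕ) : ZMod p) • w := (Nat.cast_smul_eq_nsmul (ZMod p) p w).symm
    have h3 : ((((p : ℕ) : EndM M ρ)) : Module.End (ZMod p) W) = ((p : ℕ) : Module.End (ZMod p) W) :=
      map_natCast (EndM M ρ).subtype p
    rw [h3, h1, h2, ZMod.natCast_self, zero_smul]
    rfl
  let ρ' : C →* (W ≃ₗ[EndM M ρ] W) :=
    { toFun := fun c =>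
        { (ρ c).toAddEquiv with
          map_smul' := fun f w => (h.endC f (mem_EndM.1 f.2) c w).symm }
      map_one' := by
        ext w
        show ρ 1 w = w
        rw [map_one]
        rfl
      map_mul' := fun a b => by
        ext w
        show ρ (a * b) w = ρ a (ρ b w)
        rw [map_mul]
        rfl }
  exact ⟨EndM M ρ, F, hfinK, hch, Md, ρ', hcard, fun c w => rfl⟩

end

/-! ### the assembly -/

variable {p e : ℕ} [Fact p.Prime] {H : Type u} [Group H] [Finite H] {A M C : Subgroup H} {W : Type v}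
  [AddCommGroup W] [Module (ZMod p) W] [Finite W] {ρ : C →* (W ≃ₗ[ZMod p] W)}

theorem basicS_of (P : Perm2) (h : BSit p e A M C ρ)
    (R : ∀ (T : Type) [Group T] [Finite T], IsSimpleGroup T → (∃ x y : T, x * y ≠ y * x) →
      IsEmpty (T ≃* alternatingGroup (Fin 5)) → RowS T)
    (SS : SStmt p e A M C ρ) (DG : DimGe.{v, u, v}) (A5 : A5Stmt p e A M C W) : BGood e C W := by
  obtain ⟨T, iT, fT, t, L, hs, hna, hpT, ht, hLM, hLc, hLp, hLT, hLw, hφ, hk⟩ := SS
  have hp : p.Prime := Fact.out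
  have hntW := h.nt
  obtain ⟨K, iK, fK, cK, mK, ρ', hK, hρ'⟩ := exists_field h
  have he : 1 ≤ e := by
    by_contra he
    have : e = 0 := by omega
    subst this
    rw [pow_zero] at hK
    have : 1 < Nat.card K := Finite.one_lt_card
    omega
  have hcardC : ¬ p ∣ Nat.card C := fun h1 => h.cop (h1.trans (card_subgroup_dvd_card C))
  have hLC : ∀ i, L i ≤ C := fun i => (hLM i).trans h.le
  have hW : Nat.card W = (p ^ e) ^ Module.finrank K W := by
    rw [← hK]
    exact Module.natCard_eq_pow_finrank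
  -- the bound for the dimension
  have hdim : ∀ δ, LBp T p δ → 2 ≤ δ → t * δ ≤ Module.finrank K W := by
    intro δ h1 h2
    refine DG h1 h2 ht hcardC (fun i => (L i).subgroupOf C) ?_ ?_ ?_ ρ' ?_
    · intro i j hij x hx y hy
      apply Subtype.ext
      exact hLc i j hij x hx y hy
    · intro i
      have e1 := (subgroupOfEquivOfLe (hLC i))
      have h3 := hLp i
      rw [eq_top_iff] at h3 ⊢
      intro x _
      have h4 : e1 x ∈ commutator (L i) := h3 (mem_top _)
      have h5 : (commutator (L i)).map e1.symm.toMonoidHom ≤ commutator ((L i).subgroupOf C) := by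
        rw [_root_.commutator_def, _root_.commutator_def, map_commutator]
        exact commutator_mono le_top le_top
      have h6 := h5 ⟨_, h4, rfl⟩
      have h7 : e1.symm.toMonoidHom (e1 x) = x := e1.symm_apply_apply x
      rwa [h7] at h6
    · intro i
      obtain ⟨π, hπ, hker⟩ := hLT i
      let e1 := (subgroupOfEquivOfLe (hLC i))
      refine ⟨π.comp e1.toMonoidHom, hπ.comp e1.surjective, ?_⟩
      intro x hx
      have h3 : e1 x ∈ center (L i) := hker hx
      rw [mem_center_iff] at h3 ⊢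
      intro g
      apply e1.injective
      rw [map_mul, map_mul]
      exact h3 (e1 g)
    · intro i w hw
      refine hLw i w fun x hx => ?_
      rw [← hρ']
      exact hw x hx
  intro N hN hNC
  rw [hW]
  rcases isEmpty_or_nonempty (T ≃* alternatingGroup (Fin 5)) with hT | ⟨⟨eT⟩⟩
  · obtain ⟨κ, δ, h1, h2, h3, h4⟩ := R T hs hna hT p hp hpT
    exact arith1 hp.two_le he ht h3 (hdim δ h2 h3) h4 (hk P κ h1 N hN hNC)
  · have h60 : Nat.card T = 60 := by
      rw [Nat.card_congr eT.toEquiv, nat_card_alternatingGroup]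
      simp [Nat.factorial]
    have h7 : 7 ≤ p := by
      rw [h60] at hpT
      by_contra h7
      have h8 : p < 7 := by omega
      have h9 := hp.two_le
      interval_cases p
      · exact hpT (by norm_num)
      · exact hpT (by norm_num)
      · exact absurd hp (by norm_num)
      · exact hpT (by norm_num)
      · exact absurd hp (by norm_num)
    have hd := hdim 2 (lbp_two T p) le_rfl
    by_cases hc : 2 ≤ t ∨ (t = 1 ∧ 3 ≤ Module.finrank K W)
    · exact arith2 h7 he (by omega) hc (hk P 7 (ubk_a5 eT) N hN hNC)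
    · push Not at hc
      have ht1 : t = 1 := by omega
      have hd2 : Module.finrank K W = 2 := by
        have := hc.2 ht1
        omega
      obtain ⟨φ, hφs, hφk⟩ := hφ ht1
      rw [← hW]
      refine A5 (eT.toMonoidHom.comp φ) (eT.surjective.comp hφs) (fun x => ?_) (by rw [hW, hd2]) N hN hNC
      rw [← hφk x]
      constructor
      · intro h1
        apply eT.injective
        rw [map_one]
        exact h1
      · intro h1
        rw [MonoidHom.comp_apply, h1, map_one]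

end Cfsg.Agent.H393.KGL
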